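import Mathlib
import Cfsg.Agent.Lib.BlockH.MaxPair
import Cfsg.Agent.Lib.BlockH.SubpairLE
import Cfsg.Agent.Lib.Blocks.FMT
import Cfsg.Agent.Lib.BlockT.NormalP
import Cfsg.Agent.Lib.CharTriple.FongCore
import Cfsg.Agent.Lib.Core.Basic

/-!
# Normal `π'`-subgroups in the kernels of blocks along Brauer pairs

For a normal `p'`-subgroup `U` of `K`, the trivial idempotent `e_U = |U|⁻¹ ∑_{u ∈ U} u` of `ℂ[K]` detects
whether `U` is in the kernel of a block of `K`. Its Brauer image at a `p`-subgroup `P` is, up to a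
unit, the trivial idempotent of `C_U(P)`.
-/

set_option autoImplicit false
set_option linter.unusedSectionVars false
set_option linter.style.haveILetI false

namespace Cfsg.Agent.Lib.BlockPi.Basic

open Cfsg Module
open Cfsg.Agent.Lib.Char.Basic Cfsg.Agent.Lib.Char.Ortho Cfsg.Agent.Lib.Char.Complete
open Cfsg.Agent.Lib.Char.Conj
open Cfsg.Agent.Lib.Blocks.Local Cfsg.Agent.Lib.Blocks.Central Cfsg.Agent.Lib.Blocks.Brauer
open Cfsg.Agent.Lib.Blocks.Induced Cfsg.Agent.Lib.Blocks.Third
open Cfsg.Agent.Lib.BlockH.BrauerMap Cfsg.Agent.Lib.BlockH.Subpair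
open scoped ComplexConjugate

universe u

section Trivial

variable {K : Type u} [Group K] [Fintype K] (U : Subgroup K) [hU : U.Normal] [Fintype U]

open Classical in
/-- The trivial idempotent of a normal subgroup. -/
noncomputable def uIdem : Subalgebra.center ℂ (GA K) :=
  ⟨ofFun (fun g => if g ∈ U then (Nat.card U : ℂ)⁻¹ else 0), by
    rw [mem_center_iff]
    intro g h
    simp only [coeff_ofFun]
    by_cases hg : g ∈ U
    · rw [if_pos hg, if_pos (hU.conj_mem g hg h)]
    · rw [if_neg hg, if_neg (fun h' => hg (by simpa [mul_assoc] using hU.conj_mem _ h' h⁻¹))]⟩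

open Classical in
theorem coeff_uIdem (g : K) :
    (uIdem U : GA K).coeff g = if g ∈ U then (Nat.card U : ℂ)⁻¹ else 0 := rfl

theorem omegaHom_uIdem (ψ : IrrCharacter K) :
    omegaHom ψ (uIdem U) =
      classInner (fun u : U => (ψ : K → ℂ) u) ((oneI U : IrrCharacter U) : U → ℂ) / (ψ : K → ℂ) 1 := by
  classical
  rw [omegaHom_apply, lin_apply]
  congr 1
  rw [sum_eq_sum_subgroup U _ (fun g hg => by rw [coeff_uIdem, if_neg hg, zero_mul]), classInner_def,
    Finset.mul_sum]
  refine Finset.sum_congr rfl fun u _ => ?_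
  rw [coeff_uIdem, if_pos u.2, oneI_apply, map_one, mul_one]

theorem ker_of_classInner_ne {ψ : IrrCharacter K}
    (h : classInner (fun u : U => (ψ : K → ℂ) u) ((oneI U : IrrCharacter U) : U → ℂ) ≠ 0) (u : U) :
    (ψ : K → ℂ) u = (ψ : K → ℂ) 1 := by
  have hinv : ∀ g : K, conjOn hU g (((oneI U : IrrCharacter U)) : U → ℂ) = ((oneI U : IrrCharacter U) : U → ℂ) := by
    intro g
    funext x
    rw [conjOn_apply, oneI_apply, oneI_apply]
  have h1 := Cfsg.Agent.Lib.CharTriple.FongCore.restrict_of_invariant ψ.2 (oneI U).2 hinv h u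
  have h2 := Cfsg.Agent.Lib.CharTriple.FongCore.restrict_of_invariant ψ.2 (oneI U).2 hinv h 1
  simp only [Subgroup.coe_one] at h2
  rw [h1, h2, oneI_apply, oneI_apply]

theorem omegaHom_uIdem_of_ker {ψ : IrrCharacter K} (h : ∀ u : U, (ψ : K → ℂ) u = (ψ : K → ℂ) 1) :
    omegaHom ψ (uIdem U) = 1 := by
  have hψ1 := irr_one_ne_zero ψ.2
  have hc : (Nat.card U : ℂ) ≠ 0 := card_ne_zero_complex
  rw [omegaHom_uIdem, classInner_def, Finset.sum_congr rfl (fun u _ => by rw [h u, oneI_apply, map_one, mul_one]),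
    Finset.sum_const, Finset.card_univ, nsmul_eq_mul, ← Nat.card_eq_fintype_card]
  field_simp

theorem classInner_ne_of_ker {ψ : IrrCharacter K} (h : ∀ u : U, (ψ : K → ℂ) u = (ψ : K → ℂ) 1) :
    classInner (fun u : U => (ψ : K → ℂ) u) ((oneI U : IrrCharacter U) : U → ℂ) ≠ 0 := by
  intro h0
  have h1 := omegaHom_uIdem_of_ker U h
  rw [omegaHom_uIdem, h0, zero_div] at h1
  exact zero_ne_one h1

variable {M : Ideal AlgInt} {p : ℕ} [Fintype (IrrCharacter K)]

theorem uIdem_mul_idem_eq_zero {f : Set (IrrCharacter K)}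
    (h : ∀ ψ ∈ f, classInner (fun u : U => (ψ : K → ℂ) u) ((oneI U : IrrCharacter U) : U → ℂ) = 0) :
    uIdem U * idem f = 0 := by
  classical
  apply omegaHom_injective
  intro ψ
  rw [map_mul, omegaHom_idem, map_zero]
  by_cases hψ : ψ ∈ f
  · rw [omegaHom_uIdem, h ψ hψ, zero_div, zero_mul]
  · rw [if_neg hψ, mul_zero]

theorem uIdem_mul_idem_eq_self {f : Set (IrrCharacter K)}
    (h : ∀ ψ ∈ f, ∀ u : U, (ψ : K → ℂ) u = (ψ : K → ℂ) 1) :
    uIdem U * idem f = idem f := by
  classical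
  apply omegaHom_injective
  intro ψ
  rw [map_mul, omegaHom_idem]
  by_cases hψ : ψ ∈ f
  · rw [omegaHom_uIdem_of_ker U (h ψ hψ), if_pos hψ, mul_one]
  · rw [if_neg hψ, mul_zero]

end Trivial

section Brauer

variable {G : Type u} [Group G] [Fintype G] {M : Ideal AlgInt} {p : ℕ}

variable (K : Subgroup G) [Fintype K] (U : Subgroup K) [hU : U.Normal] [Fintype U]

/-- The trivial idempotent of `U ⊴ K`, in `ℂ[G]`. -/
noncomputable def yU : GA G := incl K (uIdem U : GA K)

open Classical in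
theorem coeff_yU (g : G) :
    (yU K U).coeff g = if g ∈ U.map K.subtype then (Nat.card U : ℂ)⁻¹ else 0 := by
  by_cases hg : g ∈ K
  · rw [yU, coeff_incl_of_mem K _ hg, coeff_uIdem]
    by_cases hgU : (⟨g, hg⟩ : K) ∈ U
    · rw [if_pos hgU, if_pos]
      exact ⟨⟨g, hg⟩, hgU, rfl⟩
    · rw [if_neg hgU, if_neg]
      rintro ⟨k, hk, rfl⟩
      exact hgU hk
  · rw [yU, coeff_incl_of_notMem K _ hg, if_neg]
    rintro ⟨k, hk, rfl⟩
    exact hg k.2

theorem qinv_yU {T : Subgroup G} (hT : ∀ t ∈ T, ∀ g ∈ U.map K.subtype, t * g * t⁻¹ ∈ U.map K.subtype) :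
    QInv T (yU K U) := by
  classical
  intro t ht g
  rw [coeff_yU, coeff_yU]
  by_cases hg : g ∈ U.map K.subtype
  · rw [if_pos hg, if_pos (hT t ht g hg)]
  · rw [if_neg hg, if_neg]
    intro h
    apply hg
    have := hT t⁻¹ (T.inv_mem ht) _ h
    simpa [mul_assoc] using this

theorem rc_yU [M.IsPrime] (hM : IsPModular p M) (hUp : ¬ p ∣ Nat.card U) : Rc M (yU K U) := by
  classical
  intro g
  rw [coeff_yU]
  split_ifs
  · exact memLocalRing_natCast_inv hM hUp
  · exact memLocalRing_zero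

/-- The intersection of `U` with a subgroup of `K`. -/
def interU (C : Subgroup G) : Subgroup C := (U.map K.subtype).subgroupOf C

theorem mem_interU {C : Subgroup G} (c : C) : c ∈ interU K U C ↔ (c : G) ∈ U.map K.subtype :=
  Subgroup.mem_subgroupOf

theorem interU_normal {C : Subgroup G} (hC : C ≤ K) : (interU K U C).Normal := by
  constructor
  intro n hn c
  rw [mem_interU] at hn ⊢
  obtain ⟨k, hk, hkn⟩ := hn
  refine ⟨⟨c, hC c.2⟩ * k * (⟨c, hC c.2⟩ : K)⁻¹, hU.conj_mem k hk _, ?_⟩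
  simp only [Subgroup.subtype_apply] at hkn ⊢
  push_cast
  rw [hkn]

theorem card_interU_dvd (C : Subgroup G) : Nat.card (interU K U C) ∣ Nat.card U := by
  classical
  have h1 : Nat.card (interU K U C) ∣ Nat.card (U.map K.subtype) := by
    have hinj : Function.Injective (fun v : interU K U C => (⟨((v : C) : G), (mem_interU K U _).mp v.2⟩ : U.map K.subtype)) := by
      intro a b h
      apply Subtype.ext
      apply Subtype.ext
      have h3 := congrArg Subtype.val h
      exact h3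
    let f : interU K U C →* U.map K.subtype :=
      { toFun := fun v => ⟨((v : C) : G), (mem_interU K U _).mp v.2⟩
        map_one' := rfl
        map_mul' := fun _ _ => rfl }
    exact Subgroup.card_dvd_of_injective f hinj
  have h2 : Nat.card (U.map K.subtype) = Nat.card U :=
    Nat.card_congr (U.equivMapOfInjective K.subtype K.subtype_injective).toEquiv.symm
  rwa [h2] at h1

variable {P : Subgroup G} [Fintype (Subgroup.centralizer (P : Set G))]

theorem brH_yU (hCK : Subgroup.centralizer (P : Set G) ≤ K)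
    [Fintype (interU K U (Subgroup.centralizer (P : Set G)))]
    (ξ : IrrCharacter (Subgroup.centralizer (P : Set G))) :
    haveI := interU_normal K U hCK
    brH P ξ (yU K U) =
      ((Nat.card (interU K U (Subgroup.centralizer (P : Set G))) : ℂ) / (Nat.card U : ℂ)) *
        omegaHom ξ (uIdem (interU K U (Subgroup.centralizer (P : Set G)))) := by
  classical
  haveI := interU_normal K U hCK
  have hV : (Nat.card (interU K U (Subgroup.centralizer (P : Set G))) : ℂ) ≠ 0 := card_ne_zero_complex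
  have hU0 : (Nat.card U : ℂ) ≠ 0 := card_ne_zero_complex
  rw [brH, omegaHom_apply, omega, lin_apply, lin_apply, mul_div_assoc', Finset.mul_sum]
  congr 1
  refine Finset.sum_congr rfl fun c _ => ?_
  rw [coeff_restr, coeff_yU, coeff_uIdem, ← mul_assoc]
  congr 1
  by_cases hc : (c : G) ∈ U.map K.subtype
  · rw [if_pos hc, if_pos ((mem_interU K U c).mpr hc)]
    field_simp
  · rw [if_neg hc, if_neg (fun h => hc ((mem_interU K U c).mp h)), mul_zero]

end Brauer

section DownUp

variable {G : Type u} [Group G] [Fintype G] {M : Ideal AlgInt} {p : ℕ}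

variable (K : Subgroup G) [Fintype K] [Fintype (IrrCharacter K)] (U : Subgroup K) [hU : U.Normal]
  [Fintype U]

variable {P : Subgroup G} [Fintype (Subgroup.centralizer (P : Set G))]

theorem yU_mul_subIdem (f : Set (IrrCharacter K)) :
    yU K U * subIdem K f = incl K (((uIdem U * idem f : Subalgebra.center ℂ (GA K))) : GA K) := by
  rw [yU, subIdem, ← incl_mul]
  rfl

theorem qinv_yU_of_le (hC : Subgroup.centralizer (P : Set G) ≤ K) :
    QInv (Subgroup.centralizer (P : Set G)) (yU K U) := by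
  refine qinv_yU K U fun t ht g hg => ?_
  obtain ⟨k, hk, rfl⟩ := hg
  exact ⟨⟨t, hC ht⟩ * k * (⟨t, hC ht⟩ : K)⁻¹, hU.conj_mem k hk _, by simp⟩

/-- The kernel passes down a Brauer morphism. -/
theorem down (hM : IsPModular p M) (hP : IsPGroup p P)
    (hCK : Subgroup.centralizer (P : Set G) ≤ K)
    {f : Set (IrrCharacter K)} (hf : IsPBlock M f)
    (hst : ∀ u ∈ P, StabilizesBlock K f u)
    (hUp : ¬ p ∣ Nat.card U)
    (hPU : ∀ t ∈ P, ∀ g ∈ U.map K.subtype, t * g * t⁻¹ ∈ U.map K.subtype)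
    (ξ : IrrCharacter (Subgroup.centralizer (P : Set G)))
    (h1 : MemLocalIdeal M (brH P ξ (subIdem K f) - 1))
    (hV : ∀ c : Subgroup.centralizer (P : Set G), (c : G) ∈ U.map K.subtype →
      (ξ : Subgroup.centralizer (P : Set G) → ℂ) c = (ξ : Subgroup.centralizer (P : Set G) → ℂ) 1) :
    ∀ ψ ∈ f, ∀ u : K, u ∈ U → (ψ : K → ℂ) u = (ψ : K → ℂ) 1 := by
  classical
  haveI := isPrime_of_pModular hM
  by_contra hne
  push Not at hne
  obtain ⟨ψ, hψ, u, hu, hne⟩ := hne
  have hψ0 : classInner (fun u : U => (ψ : K → ℂ) u) ((oneI U : IrrCharacter U) : U → ℂ) = 0 := by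
    by_contra h
    exact hne (ker_of_classInner_ne U h ⟨u, hu⟩)
  have h0 : ∀ ψ' ∈ f, classInner (fun u : U => (ψ' : K → ℂ) u) ((oneI U : IrrCharacter U) : U → ℂ) = 0 := by
    intro ψ' hψ'
    by_contra h
    have hsame : SameBlock M ((ψ' : IrrCharacter K) : K → ℂ) (ψ : K → ℂ) := by
      have h2 := hψ
      rw [isPBlock_eq_blockOf hf hψ'] at h2
      exact h2
    exact Cfsg.Agent.Lib.BlockT.NormalP.constituent_of_sameBlock hU M hM hUp hsame h hψ0
  have e := uIdem_mul_idem_eq_zero U h0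
  have hyx : yU K U * subIdem K f = 0 := by
    rw [yU_mul_subIdem, e]
    exact incl_zero' K
  have hxI : BrInv P (subIdem K f) := ⟨qinv_subIdem_of_stable K hf hst, qinv_subIdem K f hCK⟩
  have hyI : BrInv P (yU K U) := ⟨qinv_yU K U hPU, qinv_yU_of_le K U hCK⟩
  have hm := brH_mul_sub_mem (ξ := ξ) hM hP hyI hxI (rc_yU K U hM hUp) (rc_subIdem K hf)
  rw [hyx, brH_zero, zero_sub] at hm
  have hm' := memLocalIdeal_neg hm
  rw [neg_neg] at hm'
  have hyl : MemLocalRing M (brH P ξ (yU K U)) := brH_memLocalRing hyI.cinv (rc_yU K U hM hUp)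
  have hy : MemLocalIdeal M (brH P ξ (yU K U)) := by
    have h2 := memLocalIdeal_sub hm' (memLocalIdeal_mul_left hyl h1)
    convert h2 using 1
    ring
  letI : Fintype (interU K U (Subgroup.centralizer (P : Set G))) := Fintype.ofFinite _
  haveI := interU_normal K U hCK
  rw [brH_yU K U hCK ξ, omegaHom_uIdem_of_ker _ (fun v => hV _ ((mem_interU K U _).mp v.2)), mul_one] at hy
  have h3 := memLocalIdeal_mul_right hy (memLocalRing_natCast (M := M) (Nat.card U))
  have hU0 : (Nat.card U : ℂ) ≠ 0 := card_ne_zero_complex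
  rw [div_mul_cancel₀ _ hU0] at h3
  have h4 := (natCast_memLocalIdeal_iff hM _).mp h3
  exact hUp (h4.trans (card_interU_dvd K U _))

/-- The kernel passes up a Brauer morphism. -/
theorem up (hM : IsPModular p M) (hP : IsPGroup p P)
    (hCK : Subgroup.centralizer (P : Set G) ≤ K)
    {f : Set (IrrCharacter K)} (hf : IsPBlock M f)
    (hst : ∀ u ∈ P, StabilizesBlock K f u)
    (hUp : ¬ p ∣ Nat.card U)
    (hPU : ∀ t ∈ P, ∀ g ∈ U.map K.subtype, t * g * t⁻¹ ∈ U.map K.subtype)
    (ξ : IrrCharacter (Subgroup.centralizer (P : Set G)))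
    (h1 : MemLocalIdeal M (brH P ξ (subIdem K f) - 1))
    (hker : ∀ ψ ∈ f, ∀ u : K, u ∈ U → (ψ : K → ℂ) u = (ψ : K → ℂ) 1) :
    ∀ c : Subgroup.centralizer (P : Set G), (c : G) ∈ U.map K.subtype →
      (ξ : Subgroup.centralizer (P : Set G) → ℂ) c = (ξ : Subgroup.centralizer (P : Set G) → ℂ) 1 := by
  classical
  haveI := isPrime_of_pModular hM
  have e := uIdem_mul_idem_eq_self U (f := f) (fun ψ hψ u => hker ψ hψ u u.2)
  have hyx : yU K U * subIdem K f = subIdem K f := by
    rw [yU_mul_subIdem, e]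
    rfl
  have hxI : BrInv P (subIdem K f) := ⟨qinv_subIdem_of_stable K hf hst, qinv_subIdem K f hCK⟩
  have hyI : BrInv P (yU K U) := ⟨qinv_yU K U hPU, qinv_yU_of_le K U hCK⟩
  have hm := brH_mul_sub_mem (ξ := ξ) hM hP hyI hxI (rc_yU K U hM hUp) (rc_subIdem K hf)
  rw [hyx] at hm
  have hyl : MemLocalRing M (brH P ξ (yU K U)) := brH_memLocalRing hyI.cinv (rc_yU K U hM hUp)
  have hxl : MemLocalRing M (brH P ξ (subIdem K f)) := brH_memLocalRing hxI.cinv (rc_subIdem K hf)
  -- `brH y ≡ 1`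
  have hy1 : MemLocalIdeal M (brH P ξ (yU K U) - 1) := by
    have h2 := memLocalIdeal_mul_left hyl h1
    have h3 := memLocalIdeal_add (memLocalIdeal_add (memLocalIdeal_neg h2) (memLocalIdeal_neg hm)) h1
    convert h3 using 1
    ring
  have hy0 : brH P ξ (yU K U) ≠ 0 := by
    intro h0
    rw [h0, zero_sub] at hy1
    have := memLocalIdeal_neg hy1
    rw [neg_neg] at this
    exact one_notMemLocalIdeal this
  letI : Fintype (interU K U (Subgroup.centralizer (P : Set G))) := Fintype.ofFinite _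
  haveI := interU_normal K U hCK
  rw [brH_yU K U hCK ξ] at hy0
  have h5 : omegaHom ξ (uIdem (interU K U (Subgroup.centralizer (P : Set G)))) ≠ 0 :=
    right_ne_zero_of_mul hy0
  rw [omegaHom_uIdem] at h5
  have h6 := left_ne_zero_of_mul (a := classInner _ _) (by simpa [div_eq_mul_inv] using h5)
  intro c hc
  exact ker_of_classInner_ne _ h6 ⟨c, (mem_interU K U c).mpr hc⟩

end DownUp

end Cfsg.Agent.Lib.BlockPi.Basic
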