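import Mathlib
import Cfsg.Agent.Lib.BlockPi.Basic

/-!
# `O_τ(C_G(Q))` along chains of Brauer pairs
-/

set_option autoImplicit false
set_option linter.unusedSectionVars false
set_option linter.style.haveILetI false

namespace Cfsg.Agent.Lib.BlockPi.Chain

open Cfsg Module
open Cfsg.Agent.Lib.Char.Basic Cfsg.Agent.Lib.Char.Ortho Cfsg.Agent.Lib.Char.Complete
open Cfsg.Agent.Lib.Char.Conj
open Cfsg.Agent.Lib.Blocks.Local Cfsg.Agent.Lib.Blocks.Central Cfsg.Agent.Lib.Blocks.Brauer
open Cfsg.Agent.Lib.Blocks.Induced Cfsg.Agent.Lib.Blocks.Third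
open Cfsg.Agent.Lib.BlockH.BrauerMap Cfsg.Agent.Lib.BlockH.Subpair Cfsg.Agent.Lib.BlockH.SubpairLE
open Cfsg.Agent.Lib.BlockH.Pairs Cfsg.Agent.Lib.BlockH.Transport
open Cfsg.Agent.Lib.Core.Basic
open Cfsg.Agent.Lib.BlockPi.Basic
open scoped ComplexConjugate

universe u

section CoreLemmas

variable {G : Type u} [Group G] [Finite G] (τ : Set ℕ)

theorem conj_mem_map_piCore {K : Subgroup G} {t : G} (ht : t ∈ Subgroup.normalizer (K : Set G))
    {g : G} (hg : g ∈ (piCore τ K).map K.subtype) : t * g * t⁻¹ ∈ (piCore τ K).map K.subtype := by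
  obtain ⟨k, hk, rfl⟩ := hg
  have h1 : conjOfNormalizer ht k ∈ piCore τ K := by
    rw [← map_piCore_equiv (π := τ) (conjOfNormalizer ht)]
    exact ⟨k, hk, rfl⟩
  exact ⟨_, h1, rfl⟩

theorem not_dvd_card_piCore {X : Type u} [Group X] [Finite X] {p : ℕ} (hp : p.Prime) (hpτ : p ∉ τ) :
    ¬ p ∣ Nat.card (piCore τ X) := fun h => hpτ (piCore_prop p hp h)

theorem order_prop {X : Type u} [Group X] [Finite X] {u : X} (hu : u ∈ piCore τ X) :
    ∀ q : ℕ, q.Prime → q ∣ orderOf u → q ∈ τ := by
  intro q hq hd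
  have h1 := orderOf_dvd_natCard (⟨u, hu⟩ : piCore τ X)
  rw [Subgroup.orderOf_mk] at h1
  exact piCore_prop (G := X) q hq (hd.trans h1)

/-- A `C`-normal intersection with the core lies in the core of `C`. -/
theorem mem_piCore_of_le {K C : Subgroup G} (hC : C ≤ K) (c : C)
    (hc : (c : G) ∈ (piCore τ K).map K.subtype) : c ∈ piCore τ C := by
  classical
  letI := Fintype.ofFinite G
  letI : Fintype K := Fintype.ofFinite _
  haveI := interU_normal K (piCore τ K) hC
  have h1 : interU K (piCore τ K) C ≤ piCore τ C := by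
    apply le_piCore inferInstance
    intro q hq hd
    exact piCore_prop q hq (hd.trans (card_interU_dvd K (piCore τ K) C))
  exact h1 ((mem_interU K _ c).mpr hc)

end CoreLemmas

section Block

variable {K : Type u} [Group K] [Fintype K] {M : Ideal AlgInt} {p : ℕ}

/-- Kernels are constant on blocks for normal `p'`-subgroups. -/
theorem ker_block (hM : IsPModular p M) (U : Subgroup K) [hU : U.Normal] [Fintype U]
    (hUp : ¬ p ∣ Nat.card U) {g : Set (IrrCharacter K)} (hg : IsPBlock M g) {ξ ξ' : IrrCharacter K}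
    (hξ : ξ ∈ g) (hξ' : ξ' ∈ g) (h : ∀ u : U, (ξ : K → ℂ) u = (ξ : K → ℂ) 1) (u : U) :
    (ξ' : K → ℂ) u = (ξ' : K → ℂ) 1 := by
  haveI := isPrime_of_pModular hM
  have hsame : SameBlock M ((ξ : IrrCharacter K) : K → ℂ) (ξ' : K → ℂ) := by
    have h2 := hξ'
    rw [isPBlock_eq_blockOf hg hξ] at h2
    exact h2
  exact ker_of_classInner_ne U (Cfsg.Agent.Lib.BlockT.NormalP.constituent_of_sameBlock hU M hM hUp hsame
    (classInner_ne_of_ker U h)) u

/-- The trivial idempotents of a normal subgroup `T ≤ Y`, with `Y ⊴ X`, are compatible with constituents. -/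
theorem omegaHom_uIdem_eq_of_constituent {X : Type u} [Group X] [Fintype X] {Y : Subgroup X}
    (hY : Y.Normal) [Fintype Y] {χ : IrrCharacter X} {ξ : IrrCharacter Y}
    (hcon : classInner (fun n : Y => (χ : X → ℂ) n) (ξ : Y → ℂ) ≠ 0)
    (T : Subgroup X) [hT : T.Normal] [Fintype T] (hTY : T ≤ Y) [Fintype (T.subgroupOf Y)] :
    omegaHom χ (uIdem T) = omegaHom ξ (uIdem (T.subgroupOf Y)) := by
  classical
  have hcard : Nat.card (T.subgroupOf Y) = Nat.card T :=
    Nat.card_congr (Subgroup.subgroupOfEquivOfLe hTY).toEquiv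
  let a : Y → ℂ := fun n => if (n : X) ∈ T then (Nat.card T : ℂ)⁻¹ else 0
  have ha : ∀ (t : X) (n : Y), a ⟨t * n * t⁻¹, hY.conj_mem n n.2 t⟩ = a n := by
    intro t n
    show (if t * (n : X) * t⁻¹ ∈ T then _ else _) = if (n : X) ∈ T then _ else _
    by_cases hn : (n : X) ∈ T
    · rw [if_pos hn, if_pos (hT.conj_mem _ hn t)]
    · rw [if_neg hn, if_neg (fun h => hn (by simpa [mul_assoc] using hT.conj_mem _ h t⁻¹))]
  have h1 := Cfsg.Agent.Lib.BlockT.Normal.sum_mul_eq_of_constituent hY χ.2 ξ.2 hcon a ha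
  rw [omegaHom_apply, omegaHom_apply, lin_apply, lin_apply,
    sum_eq_sum_subgroup Y _ (fun g hg => by
      rw [coeff_uIdem, if_neg (fun h => hg (hTY h)), zero_mul])]
  have e1 : ∑ h : Y, (uIdem T : GA X).coeff (h : X) * (χ : X → ℂ) h = ∑ n : Y, a n * (χ : X → ℂ) n := by
    refine Finset.sum_congr rfl fun n _ => ?_
    rw [coeff_uIdem]
  have e2 : ∑ h : Y, (uIdem (T.subgroupOf Y) : GA Y).coeff h * (ξ : Y → ℂ) h = ∑ n : Y, a n * (ξ : Y → ℂ) n := by
    refine Finset.sum_congr rfl fun n _ => ?_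
    rw [coeff_uIdem, hcard]
    congr 1
  rw [e1, e2, h1]

/-- Kernels through a constituent. -/
theorem ker_iff_of_constituent {X : Type u} [Group X] [Fintype X] {Y : Subgroup X}
    (hY : Y.Normal) [Fintype Y] {χ : IrrCharacter X} {ξ : IrrCharacter Y}
    (hcon : classInner (fun n : Y => (χ : X → ℂ) n) (ξ : Y → ℂ) ≠ 0)
    (T : Subgroup X) [hT : T.Normal] (hTY : T ≤ Y) :
    (∀ t ∈ T, (χ : X → ℂ) t = (χ : X → ℂ) 1) ↔
      ∀ t : Y, (t : X) ∈ T → (ξ : Y → ℂ) t = (ξ : Y → ℂ) 1 := by
  classical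
  letI : Fintype T := Fintype.ofFinite _
  letI : Fintype (T.subgroupOf Y) := Fintype.ofFinite _
  have h := omegaHom_uIdem_eq_of_constituent hY hcon T hTY
  constructor
  · intro h1
    have h2 := omegaHom_uIdem_of_ker T (ψ := χ) (fun u => h1 u u.2)
    rw [h] at h2
    have h3 : classInner (fun u : T.subgroupOf Y => (ξ : Y → ℂ) u)
        ((oneI (T.subgroupOf Y) : IrrCharacter _) : _ → ℂ) ≠ 0 := by
      intro h0
      rw [omegaHom_uIdem, h0, zero_div] at h2
      exact zero_ne_one h2
    intro t ht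
    exact ker_of_classInner_ne (T.subgroupOf Y) h3 ⟨t, ht⟩
  · intro h1
    have h2 := omegaHom_uIdem_of_ker (T.subgroupOf Y) (ψ := ξ) (fun u => h1 u u.2)
    rw [← h] at h2
    have h3 : classInner (fun u : T => (χ : X → ℂ) u)
        ((oneI T : IrrCharacter _) : _ → ℂ) ≠ 0 := by
      intro h0
      rw [omegaHom_uIdem, h0, zero_div] at h2
      exact zero_ne_one h2
    intro t ht
    exact ker_of_classInner_ne T h3 ⟨t, ht⟩

end Block

section Chain

variable {G : Type u} [Group G] [Fintype G] {M : Ideal AlgInt} {p : ℕ} (τ : Set ℕ)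

/-- `O_τ(C_G(R))` lies in the kernel of `g`. -/
def KerP (R : Subgroup G) (g : Set (IrrCharacter (Subgroup.centralizer (R : Set G)))) : Prop :=
  ∀ u : Subgroup.centralizer (R : Set G), u ∈ piCore τ (Subgroup.centralizer (R : Set G)) →
    ∀ ξ ∈ g, (ξ : Subgroup.centralizer (R : Set G) → ℂ) u = (ξ : Subgroup.centralizer (R : Set G) → ℂ) 1

/-- `O_τ(C_G(R))` is a normal Hall subgroup of `C_G(R)`. -/
def HallAt (R : Subgroup G) : Prop :=
  ∀ x : Subgroup.centralizer (R : Set G), (∀ q : ℕ, q.Prime → q ∣ orderOf x → q ∈ τ) →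
    x ∈ piCore τ (Subgroup.centralizer (R : Set G))

variable {τ}

theorem step_down (hM : IsPModular p M) (hpτ : p ∉ τ) {Q P : Subgroup G}
    {f : Set (IrrCharacter (Subgroup.centralizer (Q : Set G)))}
    {e : Set (IrrCharacter (Subgroup.centralizer (P : Set G)))}
    (h : IsNormalSubpair p M Q f P e) (htop : KerP τ P e) : KerP τ Q f := by
  classical
  haveI := isPrime_of_pModular hM
  have hp : p.Prime := hM.1
  obtain ⟨hQ, hP, hQP, hPN, hst, hξ⟩ := h
  letI : Fintype (Subgroup.centralizer (Q : Set G)) := Fintype.ofFinite _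
  letI : Fintype (Subgroup.centralizer (P : Set G)) := Fintype.ofFinite _
  haveI := Cfsg.Agent.Lib.Char.Ortho.finite_irrCharacter (G := Subgroup.centralizer (Q : Set G))
  letI : Fintype (IrrCharacter (Subgroup.centralizer (Q : Set G))) := Fintype.ofFinite _
  letI : Fintype (piCore τ (Subgroup.centralizer (Q : Set G))) := Fintype.ofFinite _
  haveI := Cfsg.Agent.Lib.Char.Ortho.finite_irrCharacter (G := Subgroup.centralizer (P : Set G))
  letI : Fintype (IrrCharacter (Subgroup.centralizer (P : Set G))) := Fintype.ofFinite _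
  obtain ⟨ξ₀, hξ₀⟩ := isPBlock_nonempty hP.2
  have h1 : MemLocalIdeal M (brH P ξ₀ (subIdem (Subgroup.centralizer (Q : Set G)) f) - 1) := by
    have := hξ ξ₀ hξ₀
    rwa [brauerOmega_eq_brH (subIdem (Subgroup.centralizer (Q : Set G)) f) _
      (fun g => (coeff_subIdem _ f g).symm)] at this
  have hmain := down (Subgroup.centralizer (Q : Set G)) (piCore τ (Subgroup.centralizer (Q : Set G)))
    hM hP.1 (centralizer_le_of_le hQP) hQ.2 hst (not_dvd_card_piCore τ hp hpτ)
    (fun t ht g hg => conj_mem_map_piCore τ (normalizer_le_normalizer_centralizer hPN ht) hg) ξ₀ h1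
    (fun c hc => htop c (mem_piCore_of_le τ (centralizer_le_of_le hQP) c hc) ξ₀ hξ₀)
  intro u hu ξ hξ'
  exact hmain ξ hξ' u hu

theorem step_up (hM : IsPModular p M) (hpτ : p ∉ τ) {Q P : Subgroup G}
    {f : Set (IrrCharacter (Subgroup.centralizer (Q : Set G)))}
    {e : Set (IrrCharacter (Subgroup.centralizer (P : Set G)))}
    (h : IsNormalSubpair p M Q f P e) (hker : KerP τ Q f) (hH : HallAt τ Q) :
    KerP τ P e ∧ HallAt τ P := by
  classical
  haveI := isPrime_of_pModular hM
  have hp : p.Prime := hM.1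
  obtain ⟨hQ, hP, hQP, hPN, hst, hξ⟩ := h
  letI : Fintype (Subgroup.centralizer (Q : Set G)) := Fintype.ofFinite _
  letI : Fintype (Subgroup.centralizer (P : Set G)) := Fintype.ofFinite _
  haveI := Cfsg.Agent.Lib.Char.Ortho.finite_irrCharacter (G := Subgroup.centralizer (Q : Set G))
  letI : Fintype (IrrCharacter (Subgroup.centralizer (Q : Set G))) := Fintype.ofFinite _
  letI : Fintype (piCore τ (Subgroup.centralizer (Q : Set G))) := Fintype.ofFinite _
  haveI := Cfsg.Agent.Lib.Char.Ortho.finite_irrCharacter (G := Subgroup.centralizer (P : Set G))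
  letI : Fintype (IrrCharacter (Subgroup.centralizer (P : Set G))) := Fintype.ofFinite _
  have hCQ := centralizer_le_of_le hQP (Q := Q) (P := P)
  have hinU : ∀ x : Subgroup.centralizer (P : Set G), (∀ q : ℕ, q.Prime → q ∣ orderOf x → q ∈ τ) →
      (x : G) ∈ (piCore τ (Subgroup.centralizer (Q : Set G))).map (Subgroup.centralizer (Q : Set G)).subtype := by
    intro x hx
    refine ⟨⟨x, hCQ x.2⟩, hH _ ?_, rfl⟩
    intro q hq hd
    apply hx q hq
    have : orderOf (⟨(x : G), hCQ x.2⟩ : Subgroup.centralizer (Q : Set G)) = orderOf x := by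
      rw [Subgroup.orderOf_mk, Subgroup.orderOf_coe]
    rwa [this] at hd
  refine ⟨?_, fun x hx => mem_piCore_of_le τ hCQ x (hinU x hx)⟩
  intro u hu ξ₀ hξ₀
  have h1 : MemLocalIdeal M (brH P ξ₀ (subIdem (Subgroup.centralizer (Q : Set G)) f) - 1) := by
    have := hξ ξ₀ hξ₀
    rwa [brauerOmega_eq_brH (subIdem (Subgroup.centralizer (Q : Set G)) f) _
      (fun g => (coeff_subIdem _ f g).symm)] at this
  exact up (Subgroup.centralizer (Q : Set G)) (piCore τ (Subgroup.centralizer (Q : Set G)))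
    hM hP.1 hCQ hQ.2 hst (not_dvd_card_piCore τ hp hpτ)
    (fun t ht g hg => conj_mem_map_piCore τ (normalizer_le_normalizer_centralizer hPN ht) hg) ξ₀ h1
    (fun ψ hψ w hw => hker w hw ψ hψ) u (hinU u (order_prop τ hu))

theorem chain_down (hM : IsPModular p M) (hpτ : p ∉ τ) {Q P : Subgroup G}
    {f : Set (IrrCharacter (Subgroup.centralizer (Q : Set G)))}
    {e : Set (IrrCharacter (Subgroup.centralizer (P : Set G)))}
    (h : SubpairLE p M Q f P e) (htop : KerP τ P e) : KerP τ Q f := by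
  have key : ∀ a : BrauerPairIdx G, Relation.ReflTransGen (NormalSubpairRel p M) a ⟨P, e⟩ →
      KerP τ a.1 a.2 := by
    intro a ha
    induction ha using Relation.ReflTransGen.head_induction_on with
    | refl => exact htop
    | head h1 _ ih => exact step_down hM hpτ h1 ih
  exact key _ h

theorem chain_up (hM : IsPModular p M) (hpτ : p ∉ τ) {Q P : Subgroup G}
    {f : Set (IrrCharacter (Subgroup.centralizer (Q : Set G)))}
    {e : Set (IrrCharacter (Subgroup.centralizer (P : Set G)))}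
    (h : SubpairLE p M Q f P e) (hker : KerP τ Q f) (hH : HallAt τ Q) : KerP τ P e ∧ HallAt τ P := by
  have key : ∀ a : BrauerPairIdx G, Relation.ReflTransGen (NormalSubpairRel p M) ⟨Q, f⟩ a →
      KerP τ a.1 a.2 ∧ HallAt τ a.1 := by
    intro a ha
    induction ha with
    | refl => exact ⟨hker, hH⟩
    | tail _ h2 ih => exact step_up hM hpτ h2 ih.1 ih.2
  exact key _ h

/-- Above every Brauer pair of `B` there is a maximal one. -/
theorem exists_maximal_above {B : Set (IrrCharacter G)} {Q : Subgroup G}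
    {f : Set (IrrCharacter (Subgroup.centralizer (Q : Set G)))} (h : IsBrauerPairOf p M B Q f) :
    ∃ (P : Subgroup G) (e : Set (IrrCharacter (Subgroup.centralizer (P : Set G)))),
      SubpairLE p M Q f P e ∧ IsMaximalBrauerPair p M B P e := by
  have key : ∀ (n : ℕ) (Q : Subgroup G) (f : Set (IrrCharacter (Subgroup.centralizer (Q : Set G)))),
      Nat.card G - Nat.card Q = n → IsBrauerPairOf p M B Q f →
      ∃ (P : Subgroup G) (e : Set (IrrCharacter (Subgroup.centralizer (P : Set G)))),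
        SubpairLE p M Q f P e ∧ IsMaximalBrauerPair p M B P e := by
    intro n
    induction n using Nat.strong_induction_on with
    | _ n ih =>
      intro Q f hn hQ
      by_cases hmax : IsMaximalBrauerPair p M B Q f
      · exact ⟨Q, f, Relation.ReflTransGen.refl, hmax⟩
      · have : ∃ (R : Subgroup G) (g : Set (IrrCharacter (Subgroup.centralizer (R : Set G)))),
            IsBrauerPairOf p M B R g ∧ SubpairLE p M Q f R g ∧ R ≠ Q := by
          by_contra hno
          push Not at hno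
          exact hmax ⟨hQ, fun R g h1 h2 => hno R g h1 h2⟩
        obtain ⟨R, g, hR, hle, hne⟩ := this
        have hlt : Q < R := lt_of_le_of_ne (le_of_subpairLE hle) (Ne.symm hne)
        have hcard := card_lt_of_lt' hlt
        have hRG : Nat.card R ≤ Nat.card G := Subgroup.card_le_card_group R
        obtain ⟨P, e, hle2, hmax2⟩ := ih (Nat.card G - Nat.card R) (by omega) R g rfl hR
        exact ⟨P, e, Relation.ReflTransGen.trans hle hle2, hmax2⟩
  exact key _ Q f rfl h

end Chain

end Cfsg.Agent.Lib.BlockPi.Chain
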