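import Mathlib
import Cfsg.Agent.Lib.BlockPi.Chain

/-!
# `O_τ(N_G(D))`, and the top of a chain of Brauer pairs
-/

set_option autoImplicit false
set_option linter.unusedSectionVars false
set_option linter.style.haveILetI false

namespace Cfsg.Agent.Lib.BlockPi.Top

open Cfsg Module
open Cfsg.Agent.Lib.Char.Basic Cfsg.Agent.Lib.Char.Ortho Cfsg.Agent.Lib.Char.Complete
open Cfsg.Agent.Lib.Char.Conj
open Cfsg.Agent.Lib.Blocks.Local Cfsg.Agent.Lib.Blocks.Central Cfsg.Agent.Lib.Blocks.Brauer
open Cfsg.Agent.Lib.Blocks.Induced Cfsg.Agent.Lib.Blocks.Third Cfsg.Agent.Lib.Blocks.Defect2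
open Cfsg.Agent.Lib.BlockH.BrauerMap Cfsg.Agent.Lib.BlockH.Subpair Cfsg.Agent.Lib.BlockH.SubpairLE
open Cfsg.Agent.Lib.BlockH.Pairs Cfsg.Agent.Lib.BlockH.Transport Cfsg.Agent.Lib.BlockH.MaxPair
open Cfsg.Agent.Lib.Core.Basic
open Cfsg.Agent.Lib.BlockPi.Basic Cfsg.Agent.Lib.BlockPi.Chain
open scoped ComplexConjugate

universe u

variable {G : Type u} [Group G] [Fintype G] {M : Ideal AlgInt} {p : ℕ}

section Constituent

variable {D H : Subgroup G} [Fintype H] [Fintype (Subgroup.centralizer (D : Set G))]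

/-- The centralizer as a normal subgroup of `H`. -/
abbrev cenIn (D H : Subgroup G) : Subgroup H := (Subgroup.centralizer (D : Set G)).subgroupOf H

theorem cenIn_normal (hP : Cfsg.Agent.Lib.Blocks.Induced.IsBrauerPair p D H) : (cenIn D H).Normal := by
  constructor
  intro n hn g
  rw [Subgroup.mem_subgroupOf] at hn ⊢
  have hg := hP.le_normalizer g.2
  exact (hP.conj_mem_centralizer g n).mpr hn

/-- The centralizer as a subgroup of `H` is the centralizer. -/
noncomputable def cenEquiv (hP : Cfsg.Agent.Lib.Blocks.Induced.IsBrauerPair p D H) : cenIn D H ≃* Subgroup.centralizer (D : Set G) :=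
  Subgroup.subgroupOfEquivOfLe hP.centralizer_le

@[simp] theorem coe_cenEquiv (hP : Cfsg.Agent.Lib.Blocks.Induced.IsBrauerPair p D H) (n : cenIn D H) :
    ((cenEquiv hP n : Subgroup.centralizer (D : Set G)) : G) = ((n : H) : G) := rfl

@[simp] theorem coe_coe_cenEquiv_symm (hP : Cfsg.Agent.Lib.Blocks.Induced.IsBrauerPair p D H) (c : Subgroup.centralizer (D : Set G)) :
    ((((cenEquiv hP).symm c : cenIn D H) : H) : G) = c := by
  have := coe_cenEquiv hP ((cenEquiv hP).symm c)
  rw [MulEquiv.apply_symm_apply] at this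
  exact this.symm

/-- The Brauer map through a constituent. -/
theorem omegaHom_brOf_eq_brH [Fintype (cenIn D H)] (hP : Cfsg.Agent.Lib.Blocks.Induced.IsBrauerPair p D H) (θ : IrrCharacter H)
    (ξ : IrrCharacter (Subgroup.centralizer (D : Set G)))
    (hcon : haveI := cenIn_normal hP
      classInner (fun n : cenIn D H => (θ : H → ℂ) n) ((irrMap (cenEquiv hP).symm ξ : IrrCharacter (cenIn D H)) : cenIn D H → ℂ) ≠ 0)
    (z : Subalgebra.center ℂ (GA G)) :
    omegaHom θ (brOf hP z) = brH D ξ (z : GA G) := by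
  classical
  haveI hY := cenIn_normal hP
  set ξ'' : IrrCharacter (cenIn D H) := irrMap (cenEquiv hP).symm ξ with hξ''
  let a : cenIn D H → ℂ := fun n => (z : GA G).coeff ((n : H) : G)
  have ha : ∀ (t : H) (n : cenIn D H), a ⟨t * n * t⁻¹, hY.conj_mem n n.2 t⟩ = a n := by
    intro t n
    show (z : GA G).coeff (((t * n * t⁻¹ : H)) : G) = _
    push_cast
    exact isCentral_of_mem z _ _
  have h1 := Cfsg.Agent.Lib.BlockT.Normal.sum_mul_eq_of_constituent hY θ.2 ξ''.2 hcon a ha
  have h2 : lin (θ : H → ℂ) (brOf hP z : GA H) = ∑ n : cenIn D H, a n * (θ : H → ℂ) n := by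
    rw [lin_apply, sum_eq_sum_subgroup (cenIn D H) _ ?_]
    · refine Finset.sum_congr rfl fun n _ => ?_
      rw [coeff_brOf, coeff_res_of_mem]
      exact Subgroup.mem_subgroupOf.mp n.2
    · intro g hg
      rw [coeff_brOf, coeff_res_of_notMem, zero_mul]
      exact fun h => hg (Subgroup.mem_subgroupOf.mpr h)
  rw [omegaHom_apply, h2, h1, brH, omega, lin_apply]
  have hξ1 : ((ξ'' : IrrCharacter (cenIn D H)) : cenIn D H → ℂ) 1 =
      (ξ : Subgroup.centralizer (D : Set G) → ℂ) 1 := by
    rw [hξ'', irrMap_apply]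
    simp
  rw [hξ1]
  congr 1
  rw [← Equiv.sum_comp (cenEquiv hP).toEquiv]
  refine Finset.sum_congr rfl fun n _ => ?_
  rw [coeff_restr, hξ'', irrMap_apply]
  simp [a]

/-- The induced functional through a constituent. -/
theorem indHom_sub_brH_of_constituent [Fintype (cenIn D H)] [M.IsPrime] (hM : IsPModular p M)
    (hP : Cfsg.Agent.Lib.Blocks.Induced.IsBrauerPair p D H) (θ : IrrCharacter H)
    (ξ : IrrCharacter (Subgroup.centralizer (D : Set G)))
    (hcon : haveI := cenIn_normal hP
      classInner (fun n : cenIn D H => (θ : H → ℂ) n) ((irrMap (cenEquiv hP).symm ξ : IrrCharacter (cenIn D H)) : cenIn D H → ℂ) ≠ 0)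
    {z : Subalgebra.center ℂ (GA G)} (hz : z ∈ localCenter M G) :
    MemLocalIdeal M (indHom H θ z - brH D ξ (z : GA G)) := by
  have h := indHom_sub_brOf_mem hM hP θ hz
  rwa [omegaHom_brOf_eq_brH hP θ ξ hcon z] at h

end Constituent

section Conj

/-- `brH` under conjugation. -/
theorem brH_conj (D : Subgroup G) (x : G) [Fintype (Subgroup.centralizer (D : Set G))]
    [Fintype (Subgroup.centralizer ((D.map (MulAut.conj x).toMonoidHom : Subgroup G) : Set G))]
    (ξ : IrrCharacter (Subgroup.centralizer ((D.map (MulAut.conj x).toMonoidHom : Subgroup G) : Set G)))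
    (z : Subalgebra.center ℂ (GA G)) :
    brH (D.map (MulAut.conj x).toMonoidHom) ξ (z : GA G) =
      brH D (irrMap (centralizerConj D x).symm ξ) (z : GA G) := by
  classical
  rw [brH, brH, omega, omega, lin_apply, lin_apply]
  have h1 : ((irrMap (centralizerConj D x).symm ξ : IrrCharacter (Subgroup.centralizer (D : Set G))) :
      Subgroup.centralizer (D : Set G) → ℂ) 1 =
      (ξ : Subgroup.centralizer ((D.map (MulAut.conj x).toMonoidHom : Subgroup G) : Set G) → ℂ) 1 := by
    rw [irrMap_apply, MulEquiv.symm_symm, map_one]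
  rw [h1]
  congr 1
  rw [← Equiv.sum_comp (centralizerConj D x).toEquiv]
  refine Finset.sum_congr rfl fun c _ => ?_
  rw [coeff_restr, coeff_restr, irrMap_apply]
  have h2 : (z : GA G).coeff (x * (c : G) * x⁻¹) = (z : GA G).coeff (c : G) := isCentral_of_mem z _ _
  simp only [MulEquiv.toEquiv_eq_coe, EquivLike.coe_coe, coe_centralizerConj, MulEquiv.symm_symm]
  rw [h2]

end Conj

section Top

variable {τ : Set ℕ} {B : Set (IrrCharacter G)} {D : Subgroup G}
  {B₁ : Set (IrrCharacter (Subgroup.normalizer (D : Set G)))}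

/-- Brauer pairs at the defect group lie under the Brauer correspondent. -/
theorem mem_correspondent_of_constituent [Fact p.Prime] (hM : IsPModular p M) (hB : IsPBlock M B)
    (hpg : IsPGroup p D) (hB₁ : IsInducedBlock M (Subgroup.normalizer (D : Set G)) B₁ B)
    (hB₁D : IsDefectGroup p M B₁ (D.subgroupOf (Subgroup.normalizer (D : Set G))))
    [Fintype (Subgroup.normalizer (D : Set G))] [Fintype (Subgroup.centralizer (D : Set G))]
    [Fintype (cenIn D (Subgroup.normalizer (D : Set G)))] [Fintype (IrrCharacter G)]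
    (hP : Cfsg.Agent.Lib.Blocks.Induced.IsBrauerPair p D (Subgroup.normalizer (D : Set G)))
    (ξ : IrrCharacter (Subgroup.centralizer (D : Set G)))
    (h1 : MemLocalIdeal M (brH D ξ (idem B : GA G) - 1))
    (χ : IrrCharacter (Subgroup.normalizer (D : Set G)))
    (hcon : haveI := cenIn_normal hP
      classInner (fun n : cenIn D (Subgroup.normalizer (D : Set G)) => (χ : Subgroup.normalizer (D : Set G) → ℂ) n)
        ((irrMap (cenEquiv hP).symm ξ : IrrCharacter _) : cenIn D (Subgroup.normalizer (D : Set G)) → ℂ) ≠ 0) :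
    χ ∈ B₁ := by
  classical
  haveI := isPrime_of_pModular hM
  haveI := Cfsg.Agent.Lib.Char.Ortho.finite_irrCharacter (G := Subgroup.normalizer (D : Set G))
  letI : Fintype (IrrCharacter (Subgroup.normalizer (D : Set G))) := Fintype.ofFinite _
  obtain ⟨B'', hB''⟩ := exists_induced hM hP (b := blockOf M (χ : _ → ℂ)) ⟨χ, rfl⟩
  obtain ⟨χ'', hχ''⟩ := isPBlock_nonempty hB''.2.1
  have hel : idem B ∈ localCenter M G := idem_mem_localCenter hB
  have h2 := IsInducedBlock.sub_mem _ hB'' (mem_blockOf_self χ) hχ'' hel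
  have h3 := indHom_sub_brH_of_constituent hM hP χ ξ hcon hel
  have hχ''B : χ'' ∈ B := by
    by_contra hne
    rw [omegaHom_idem, if_neg hne, sub_zero] at h2
    have h4 := memLocalIdeal_sub (memLocalIdeal_sub h2 h3) h1
    have e : indHom (Subgroup.normalizer (D : Set G)) χ (idem B) -
        (indHom (Subgroup.normalizer (D : Set G)) χ (idem B) - brH D ξ (idem B : GA G)) - (brH D ξ (idem B : GA G) - 1) = 1 := by
      ring
    rw [e] at h4
    exact one_notMemLocalIdeal h4
  have hBB : B'' = B := by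
    rw [isPBlock_eq_blockOf hB''.2.1 hχ'', isPBlock_eq_blockOf hB hχ''B]
  rw [hBB] at hB''
  have h5 := Cfsg.Agent.Lib.Blocks.FMT.first_main_unique hM hpg hB₁.1 hB₁D hB₁ hB''
  rw [h5]
  exact mem_blockOf_self χ

variable [Fact p.Prime]

set_option maxHeartbeats 2000000 in
theorem top_down (hM : IsPModular p M) (hpτ : p ∉ τ) (hB : IsPBlock M B)
    (hBD : IsDefectGroup p M B D)
    (hB₁ : IsInducedBlock M (Subgroup.normalizer (D : Set G)) B₁ B)
    (hB₁D : IsDefectGroup p M B₁ (D.subgroupOf (Subgroup.normalizer (D : Set G))))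
    (hker : ∀ n : Subgroup.normalizer (D : Set G), n ∈ piCore τ (Subgroup.normalizer (D : Set G)) →
      n ∈ blockKer B₁)
    {P : Subgroup G} (hPd : IsDefectGroup p M B P)
    {e : Set (IrrCharacter (Subgroup.centralizer (P : Set G)))} (hpair : IsBrauerPairOf p M B P e) :
    KerP τ P e := by
  classical
  have hp : p.Prime := Fact.out
  haveI := isPrime_of_pModular hM
  have hpg : IsPGroup p D := isDefectGroup_isPGroup hBD
  obtain ⟨x, rfl⟩ := isDefectGroup_exists_conj_eq hM hB hBD hPd
  intro u hu ξ hξ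
  letI : Fintype (Subgroup.centralizer (D : Set G)) := Fintype.ofFinite _
  letI : Fintype (Subgroup.centralizer ((D.map (MulAut.conj x).toMonoidHom : Subgroup G) : Set G)) := Fintype.ofFinite _
  letI : Fintype (Subgroup.normalizer (D : Set G)) := Fintype.ofFinite _
  letI : Fintype (cenIn D (Subgroup.normalizer (D : Set G))) := Fintype.ofFinite _
  haveI := Cfsg.Agent.Lib.Char.Ortho.finite_irrCharacter (G := G)
  letI : Fintype (IrrCharacter G) := Fintype.ofFinite _
  have hP : Cfsg.Agent.Lib.Blocks.Induced.IsBrauerPair p D (Subgroup.normalizer (D : Set G)) :=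
    Cfsg.Agent.Lib.Blocks.Inducing.isBrauerPair_normalizer hpg
  haveI hY := cenIn_normal hP
  set φ := centralizerConj D x with hφ
  set ξ' : IrrCharacter (Subgroup.centralizer (D : Set G)) := irrMap φ.symm ξ with hξ'
  have h1 : MemLocalIdeal M (brH D ξ' (idem B : GA G) - 1) := by
    have h2 := hpair.2.2 ξ hξ
    rw [brauerOmega_eq_brH (idem B : GA G) _ (fun g => (coeff_idem B g).symm), brH_conj] at h2
    exact h2
  set ξ'' : IrrCharacter (cenIn D (Subgroup.normalizer (D : Set G))) := irrMap (cenEquiv hP).symm ξ' with hξ''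
  obtain ⟨χ, hχ⟩ := Cfsg.Agent.Lib.BlockT.NormalP.exists_irr_over (G := Subgroup.normalizer (D : Set G))
    (N := cenIn D (Subgroup.normalizer (D : Set G))) ξ''
  have hχB := mem_correspondent_of_constituent hM hB hpg hB₁ hB₁D hP ξ' h1 χ hχ
  -- the image of the core in the normalizer
  let T : Subgroup (Subgroup.normalizer (D : Set G)) :=
    ((piCore τ (Subgroup.centralizer (D : Set G))).map (Subgroup.centralizer (D : Set G)).subtype).subgroupOf
      (Subgroup.normalizer (D : Set G))
  have hTn : T.Normal := by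
    constructor
    intro n hn g
    rw [Subgroup.mem_subgroupOf] at hn ⊢
    exact conj_mem_map_piCore τ (mem_normalizer_centralizer g.2) hn
  have hTY : T ≤ cenIn D (Subgroup.normalizer (D : Set G)) := by
    intro n hn
    obtain ⟨k, -, hk⟩ := Subgroup.mem_subgroupOf.mp hn
    rw [Subgroup.mem_subgroupOf, ← hk]
    exact k.2
  have hTcore : T ≤ piCore τ (Subgroup.normalizer (D : Set G)) := by
    apply le_piCore hTn
    intro q hq hd
    have h2 : Nat.card T ∣ Nat.card (piCore τ (Subgroup.centralizer (D : Set G))) := by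
      let f : T →* piCore τ (Subgroup.centralizer (D : Set G)) :=
        { toFun := fun t => ⟨⟨((t : Subgroup.normalizer (D : Set G)) : G), hTY t.2⟩, by
            obtain ⟨k, hk, hk2⟩ := Subgroup.mem_subgroupOf.mp t.2
            have : k = ⟨((t : Subgroup.normalizer (D : Set G)) : G), hTY t.2⟩ := Subtype.ext hk2
            rwa [← this]⟩
          map_one' := rfl
          map_mul' := fun _ _ => rfl }
      refine Subgroup.card_dvd_of_injective f ?_
      intro a b h
      apply Subtype.ext
      apply Subtype.ext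
      have h3 := congrArg (fun w : piCore τ (Subgroup.centralizer (D : Set G)) => ((w : Subgroup.centralizer (D : Set G)) : G)) h
      exact h3
    exact piCore_prop q hq (hd.trans h2)
  have hT : ∀ t ∈ T, (χ : Subgroup.normalizer (D : Set G) → ℂ) t = (χ : Subgroup.normalizer (D : Set G) → ℂ) 1 :=
    fun t ht => hker t (hTcore ht) χ hχB
  have hmain := (ker_iff_of_constituent hY hχ T hTY).mp hT
  -- transport `u`
  have hu' : φ.symm u ∈ piCore τ (Subgroup.centralizer (D : Set G)) := by
    rw [← map_piCore_equiv (π := τ) φ.symm]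
    exact ⟨u, hu, rfl⟩
  have h3 := hmain ((cenEquiv hP).symm (φ.symm u)) (by
    refine Subgroup.mem_subgroupOf.mpr ⟨φ.symm u, hu', ?_⟩
    rw [coe_coe_cenEquiv_symm]
    rfl)
  rw [hξ'', irrMap_apply, irrMap_apply, hξ', irrMap_apply, irrMap_apply] at h3
  simp only [MulEquiv.symm_symm, MulEquiv.apply_symm_apply, map_one] at h3
  exact h3

set_option maxHeartbeats 2000000 in
theorem top_up (hM : IsPModular p M) (hpτ : p ∉ τ) (hB : IsPBlock M B)
    (hBD : IsDefectGroup p M B D)
    (hB₁ : IsInducedBlock M (Subgroup.normalizer (D : Set G)) B₁ B)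
    (hB₁D : IsDefectGroup p M B₁ (D.subgroupOf (Subgroup.normalizer (D : Set G))))
    {P : Subgroup G} (hPd : IsDefectGroup p M B P)
    {e : Set (IrrCharacter (Subgroup.centralizer (P : Set G)))} (hpair : IsBrauerPairOf p M B P e)
    (hk : KerP τ P e) :
    ∀ n : Subgroup.normalizer (D : Set G), n ∈ piCore τ (Subgroup.normalizer (D : Set G)) →
      n ∈ blockKer B₁ := by
  classical
  have hp : p.Prime := Fact.out
  haveI := isPrime_of_pModular hM
  have hpg : IsPGroup p D := isDefectGroup_isPGroup hBD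
  obtain ⟨x, rfl⟩ := isDefectGroup_exists_conj_eq hM hB hBD hPd
  obtain ⟨ξ, hξ⟩ := isPBlock_nonempty hpair.1.2
  letI : Fintype (Subgroup.centralizer (D : Set G)) := Fintype.ofFinite _
  letI : Fintype (Subgroup.centralizer ((D.map (MulAut.conj x).toMonoidHom : Subgroup G) : Set G)) := Fintype.ofFinite _
  letI : Fintype (Subgroup.normalizer (D : Set G)) := Fintype.ofFinite _
  letI : Fintype (cenIn D (Subgroup.normalizer (D : Set G))) := Fintype.ofFinite _
  haveI := Cfsg.Agent.Lib.Char.Ortho.finite_irrCharacter (G := G)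
  letI : Fintype (IrrCharacter G) := Fintype.ofFinite _
  have hP : Cfsg.Agent.Lib.Blocks.Induced.IsBrauerPair p D (Subgroup.normalizer (D : Set G)) :=
    Cfsg.Agent.Lib.Blocks.Inducing.isBrauerPair_normalizer hpg
  haveI hY := cenIn_normal hP
  set φ := centralizerConj D x with hφ
  set ξ' : IrrCharacter (Subgroup.centralizer (D : Set G)) := irrMap φ.symm ξ with hξ'
  have h1 : MemLocalIdeal M (brH D ξ' (idem B : GA G) - 1) := by
    have h2 := hpair.2.2 ξ hξ
    rw [brauerOmega_eq_brH (idem B : GA G) _ (fun g => (coeff_idem B g).symm), brH_conj] at h2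
    exact h2
  set ξ'' : IrrCharacter (cenIn D (Subgroup.normalizer (D : Set G))) := irrMap (cenEquiv hP).symm ξ' with hξ''
  obtain ⟨χ, hχ⟩ := Cfsg.Agent.Lib.BlockT.NormalP.exists_irr_over (G := Subgroup.normalizer (D : Set G))
    (N := cenIn D (Subgroup.normalizer (D : Set G))) ξ''
  have hχB := mem_correspondent_of_constituent hM hB hpg hB₁ hB₁D hP ξ' h1 χ hχ
  set T : Subgroup (Subgroup.normalizer (D : Set G)) := piCore τ (Subgroup.normalizer (D : Set G)) with hTdef
  have hTn : T.Normal := piCore_normal _ _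
  have hTp : ¬ p ∣ Nat.card T := not_dvd_card_piCore τ hp hpτ
  -- `T` centralizes `D`
  have hDn : (D.subgroupOf (Subgroup.normalizer (D : Set G))).Normal := Subgroup.normal_in_normalizer
  have hdis : Disjoint T (D.subgroupOf (Subgroup.normalizer (D : Set G))) := by
    rw [Subgroup.disjoint_def]
    intro a haT haD
    have hDp : IsPGroup p (D.subgroupOf (Subgroup.normalizer (D : Set G))) := hP.isP'
    obtain ⟨k, hk'⟩ := hDp ⟨a, haD⟩
    have h2 : a ^ p ^ k = 1 := congrArg Subtype.val hk'
    have h3 : orderOf a ∣ p ^ k := orderOf_dvd_of_pow_eq_one h2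
    have h4 : orderOf a ∣ Nat.card T := by
      have := orderOf_dvd_natCard (⟨a, haT⟩ : T)
      rwa [Subgroup.orderOf_mk] at this
    have h5 : Nat.Coprime (p ^ k) (Nat.card T) :=
      Nat.Coprime.pow_left k ((Nat.Prime.coprime_iff_not_dvd hp).mpr hTp)
    have h6 : orderOf a = 1 := Nat.eq_one_of_dvd_coprimes h5 h3 h4
    exact orderOf_eq_one_iff.mp h6
  have hTY : T ≤ cenIn D (Subgroup.normalizer (D : Set G)) := by
    intro n hn
    rw [Subgroup.mem_subgroupOf, Subgroup.mem_centralizer_iff]
    intro d hd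
    have hdN : d ∈ Subgroup.normalizer (D : Set G) := hP.le hd
    have h2 := Subgroup.commute_of_normal_of_disjoint T (D.subgroupOf (Subgroup.normalizer (D : Set G)))
      hTn hDn hdis n ⟨d, hdN⟩ hn (Subgroup.mem_subgroupOf.mpr hd)
    have h3 := congrArg Subtype.val h2.eq
    exact h3.symm
  have hmain := (ker_iff_of_constituent hY hχ T hTY).mpr (by
    intro t ht
    -- `t` corresponds to an element of the core of the centralizer
    let ε := (cenEquiv hP).trans φ
    have ht1 : t ∈ piCore τ (cenIn D (Subgroup.normalizer (D : Set G))) := by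
      have h2 : T.subgroupOf (cenIn D (Subgroup.normalizer (D : Set G))) ≤ piCore τ (cenIn D (Subgroup.normalizer (D : Set G))) :=
        subgroupOf_piCore_le _
      exact h2 (Subgroup.mem_subgroupOf.mpr ht)
    have ht2 : ε t ∈ piCore τ (Subgroup.centralizer ((D.map (MulAut.conj x).toMonoidHom : Subgroup G) : Set G)) := by
      rw [← map_piCore_equiv (π := τ) ε]
      exact ⟨t, ht1, rfl⟩
    have h3 := hk _ ht2 ξ hξ
    rw [hξ'', irrMap_apply, irrMap_apply, hξ', irrMap_apply, irrMap_apply]
    simp only [MulEquiv.symm_symm, map_one]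
    exact h3)
  intro n hn χ' hχ'
  letI : Fintype T := Fintype.ofFinite _
  exact ker_block hM T hTp hB₁.1 hχB hχ' (fun u => hmain u u.2) ⟨n, hn⟩

end Top

end Cfsg.Agent.Lib.BlockPi.Top
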