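import Mathlib
import Cfsg.Agent.Lib.BlockPi.Top

/-!
# Brauer's lemma on `O_{π'}` in the kernels of blocks
-/

set_option autoImplicit false
set_option linter.unusedSectionVars false
set_option linter.style.haveILetI false

namespace Cfsg.Agent.Lib.BlockPi.Main

open Cfsg Module
open Cfsg.Agent.Lib.Char.Basic Cfsg.Agent.Lib.Char.Ortho Cfsg.Agent.Lib.Char.Complete
open Cfsg.Agent.Lib.Char.Conj
open Cfsg.Agent.Lib.Blocks.Local Cfsg.Agent.Lib.Blocks.Central Cfsg.Agent.Lib.Blocks.Brauer
open Cfsg.Agent.Lib.Blocks.Induced Cfsg.Agent.Lib.Blocks.Third Cfsg.Agent.Lib.Blocks.Defect2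
open Cfsg.Agent.Lib.BlockH.BrauerMap Cfsg.Agent.Lib.BlockH.Subpair Cfsg.Agent.Lib.BlockH.SubpairLE
open Cfsg.Agent.Lib.BlockH.Pairs Cfsg.Agent.Lib.BlockH.Transport Cfsg.Agent.Lib.BlockH.MaxPair
open Cfsg.Agent.Lib.Core.Basic
open Cfsg.Agent.Lib.BlockPi.Basic Cfsg.Agent.Lib.BlockPi.Chain Cfsg.Agent.Lib.BlockPi.Top
open scoped ComplexConjugate

universe u

variable {G : Type u} [Group G] [Fintype G] {M : Ideal AlgInt} {p : ℕ}

section General

variable {K : Subgroup G} [Fintype K]

theorem qinv_incl (z : Subalgebra.center ℂ (GA K)) {T : Subgroup G} (hT : T ≤ K) :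
    QInv T (incl K (z : GA K)) := by
  intro t ht g
  by_cases hg : g ∈ K
  · have h1 : t * g * t⁻¹ ∈ K := K.mul_mem (K.mul_mem (hT ht) hg) (K.inv_mem (hT ht))
    rw [coeff_incl_of_mem K _ hg, coeff_incl_of_mem K _ h1]
    exact isCentral_of_mem z ⟨g, hg⟩ ⟨t, hT ht⟩
  · have h1 : t * g * t⁻¹ ∉ K := by
      intro h
      apply hg
      have := K.mul_mem (K.mul_mem (K.inv_mem (hT ht)) h) (hT ht)
      have e : t⁻¹ * (t * g * t⁻¹) * t = g := by group
      rwa [e] at this
    rw [coeff_incl_of_notMem K _ hg, coeff_incl_of_notMem K _ h1]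

variable {P : Subgroup G} [Fintype (Subgroup.centralizer (P : Set G))]

theorem brH_incl_restr (hCK : Subgroup.centralizer (P : Set G) ≤ K)
    (ξ : IrrCharacter (Subgroup.centralizer (P : Set G))) (x : GA G) :
    brH P ξ (incl K (restr K x)) = brH P ξ x := by
  rw [brH, brH]
  congr 1
  ext c
  rw [coeff_restr, coeff_restr, coeff_incl_of_mem K _ (hCK c.2), coeff_restr]

/-- A linear functional on the center of `ℂ[K]`. -/
noncomputable def brK (ξ : IrrCharacter (Subgroup.centralizer (P : Set G))) :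
    Subalgebra.center ℂ (GA K) →ₗ[ℂ] ℂ where
  toFun z := brH P ξ (incl K (z : GA K))
  map_add' z w := by
    push_cast
    rw [incl_add, brH_add]
  map_smul' c z := by
    have h1 : incl K (((c • z : Subalgebra.center ℂ (GA K))) : GA K) = c • incl K (z : GA K) := by
      ext g
      by_cases hg : g ∈ K
      · rw [coeff_incl_of_mem K _ hg, coeff_smul', coeff_incl_of_mem K _ hg]
        rfl
      · rw [coeff_incl_of_notMem K _ hg, coeff_smul', coeff_incl_of_notMem K _ hg]
        simp
    rw [h1, brH_smul]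
    rfl

theorem brK_apply (ξ : IrrCharacter (Subgroup.centralizer (P : Set G))) (z : Subalgebra.center ℂ (GA K)) :
    brK (K := K) ξ z = brH P ξ (incl K (z : GA K)) := rfl

variable [Fintype (IrrCharacter K)] {B : Set (IrrCharacter G)}

/-- From the idempotent of a block of `K` to the idempotent of the induced block. -/
theorem brH_idem_of_induced [Fintype (IrrCharacter G)] (hM : IsPModular p M) (hP : IsPGroup p P) (hPK : P ≤ K)
    (hCK : Subgroup.centralizer (P : Set G) ≤ K) {f : Set (IrrCharacter K)}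
    (hind : IsInducedBlock M K f B)
    (ξ : IrrCharacter (Subgroup.centralizer (P : Set G)))
    (h1 : MemLocalIdeal M (brH P ξ (subIdem K f) - 1)) :
    MemLocalIdeal M (brH P ξ (idem B : GA G) - 1) := by
  classical
  haveI := isPrime_of_pModular hM
  have hinv : ∀ z : Subalgebra.center ℂ (GA K), BrInv P (incl K (z : GA K)) := fun z =>
    ⟨qinv_incl z hPK, qinv_incl z hCK⟩
  obtain ⟨χ₀, hχ₀⟩ := exists_irr_of_hom (brK (K := K) ξ)
    (fun z hz => brH_memLocalRing (hinv z).cinv (Rc.incl K (Rc.of_localCenter hz)))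
    (fun z hz w hw => by
      rw [brK_apply, brK_apply, brK_apply]
      push_cast
      rw [incl_mul]
      exact brH_mul_sub_mem hM hP (hinv z) (hinv w) (Rc.incl K (Rc.of_localCenter hz))
        (Rc.incl K (Rc.of_localCenter hw)))
    (by
      rw [brK_apply]
      push_cast
      rw [incl_one, brH_one, sub_self]
      exact memLocalIdeal_zero)
  have hf := hind.1
  have hχ₀f : χ₀ ∈ f := by
    by_contra hne
    have h2 := hχ₀ (idem f) (idem_mem_localCenter hf)
    rw [omegaHom_idem, if_neg hne, sub_zero, brK_apply] at h2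
    have h3 := memLocalIdeal_sub h2 h1
    rw [← subIdem, sub_sub_cancel] at h3
    exact one_notMemLocalIdeal h3
  obtain ⟨χ, hχ⟩ := isPBlock_nonempty hind.2.1
  have hel : idem B ∈ localCenter M G := idem_mem_localCenter hind.2.1
  have h4 := IsInducedBlock.sub_mem K hind hχ₀f hχ hel
  rw [omegaHom_idem, if_pos hχ] at h4
  have h5 := hχ₀ (restrCenter K (idem B)) (restrCenter_mem_localCenter K hel)
  rw [brK_apply, coe_restrCenter, brH_incl_restr hCK] at h5
  have h6 := memLocalIdeal_add h5 h4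
  have e : brH P ξ (idem B : GA G) - omegaHom χ₀ (restrCenter K (idem B)) + (indHom K χ₀ (idem B) - 1) =
      brH P ξ (idem B : GA G) - 1 := by
    rw [indHom_apply]
    ring
  rwa [e] at h6

/-- A Brauer pair from the value of a central character. -/
theorem isBrauerPairOf_blockOf [Fintype (IrrCharacter G)] (hM : IsPModular p M) (hP : IsPGroup p P)
    (hB : IsPBlock M B) (ξ : IrrCharacter (Subgroup.centralizer (P : Set G)))
    (h1 : MemLocalIdeal M (brH P ξ (idem B : GA G) - 1)) :
    IsBrauerPairOf p M B P (blockOf M (ξ : Subgroup.centralizer (P : Set G) → ℂ)) := by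
  haveI := isPrime_of_pModular hM
  refine ⟨⟨hP, ⟨ξ, rfl⟩⟩, hB, fun ξ' hξ' => ?_⟩
  rw [brauerOmega_eq_brH (idem B : GA G) _ (fun g => (coeff_idem B g).symm)]
  have h2 := brH_sub_mem_of_sameBlock (P := P) (x := (idem B : GA G))
    (QInv.of_central (isCentral_of_mem (idem B))) (Rc.of_localCenter (idem_mem_localCenter hB)) hξ'
  have h3 := memLocalIdeal_sub h1 h2
  convert h3 using 1
  ring

end General

section Hyp

variable [Fact p.Prime] {τ : Set ℕ} {B : Set (IrrCharacter G)} {D : Subgroup G}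
  {B₁ : Set (IrrCharacter (Subgroup.normalizer (D : Set G)))}

theorem ker_of_pair (hM : IsPModular p M) (hpτ : p ∉ τ) (hB : IsPBlock M B)
    (hBD : IsDefectGroup p M B D)
    (hB₁ : IsInducedBlock M (Subgroup.normalizer (D : Set G)) B₁ B)
    (hB₁D : IsDefectGroup p M B₁ (D.subgroupOf (Subgroup.normalizer (D : Set G))))
    (hker : ∀ n : Subgroup.normalizer (D : Set G), n ∈ piCore τ (Subgroup.normalizer (D : Set G)) →
      n ∈ blockKer B₁)
    {Q : Subgroup G} {f : Set (IrrCharacter (Subgroup.centralizer (Q : Set G)))}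
    (hpair : IsBrauerPairOf p M B Q f) : KerP τ Q f := by
  obtain ⟨P, e, hle, hmax⟩ := exists_maximal_above hpair
  exact chain_down hM hpτ hle
    (top_down hM hpτ hB hBD hB₁ hB₁D hker (isDefectGroup_of_isMaximal hM hmax) hmax.1)

theorem kerN_of_pair (hM : IsPModular p M) (hpτ : p ∉ τ) (hB : IsPBlock M B)
    (hBD : IsDefectGroup p M B D)
    (hB₁ : IsInducedBlock M (Subgroup.normalizer (D : Set G)) B₁ B)
    (hB₁D : IsDefectGroup p M B₁ (D.subgroupOf (Subgroup.normalizer (D : Set G))))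
    {Q : Subgroup G} {f : Set (IrrCharacter (Subgroup.centralizer (Q : Set G)))}
    (hpair : IsBrauerPairOf p M B Q f) (hk : KerP τ Q f) (hH : HallAt τ Q) :
    ∀ n : Subgroup.normalizer (D : Set G), n ∈ piCore τ (Subgroup.normalizer (D : Set G)) →
      n ∈ blockKer B₁ := by
  obtain ⟨P, e, hle, hmax⟩ := exists_maximal_above hpair
  exact top_up hM hpτ hB hBD hB₁ hB₁D (isDefectGroup_of_isMaximal hM hmax) hmax.1
    (chain_up hM hpτ hle hk hH).1

/-- The kernel statement for any block of a subgroup containing `C_G(P)` with `P` below. -/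
theorem ker_of_induced (hM : IsPModular p M) (hpτ : p ∉ τ) (hB : IsPBlock M B)
    (hBD : IsDefectGroup p M B D)
    (hB₁ : IsInducedBlock M (Subgroup.normalizer (D : Set G)) B₁ B)
    (hB₁D : IsDefectGroup p M B₁ (D.subgroupOf (Subgroup.normalizer (D : Set G))))
    (hker : ∀ n : Subgroup.normalizer (D : Set G), n ∈ piCore τ (Subgroup.normalizer (D : Set G)) →
      n ∈ blockKer B₁)
    {K : Subgroup G} [Fintype K] {f : Set (IrrCharacter K)} (hind : IsInducedBlock M K f B)
    {P : Subgroup G} [Fintype (Subgroup.centralizer (P : Set G))] (hP : IsPGroup p P) (hPK : P ≤ K)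
    (hCK : Subgroup.centralizer (P : Set G) ≤ K) [Fintype (IrrCharacter K)]
    (ξ : IrrCharacter (Subgroup.centralizer (P : Set G)))
    (h1 : MemLocalIdeal M (brH P ξ (subIdem K f) - 1)) :
    ∀ ψ ∈ f, ∀ u : K, u ∈ piCore τ K → (ψ : K → ℂ) u = (ψ : K → ℂ) 1 := by
  classical
  have hp : p.Prime := Fact.out
  haveI := isPrime_of_pModular hM
  haveI := Cfsg.Agent.Lib.Char.Ortho.finite_irrCharacter (G := G)
  letI : Fintype (IrrCharacter G) := Fintype.ofFinite _
  letI : Fintype (piCore τ K) := Fintype.ofFinite _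
  have hpair := isBrauerPairOf_blockOf hM hP hB ξ (brH_idem_of_induced hM hP hPK hCK hind ξ h1)
  have hk := ker_of_pair hM hpτ hB hBD hB₁ hB₁D hker hpair
  have hnorm : ∀ t ∈ P, t ∈ Subgroup.normalizer (K : Set G) := fun t ht => by
    rw [Subgroup.mem_normalizer_iff]
    intro k
    constructor
    · intro hk'
      exact K.mul_mem (K.mul_mem (hPK ht) hk') (K.inv_mem (hPK ht))
    · intro hk'
      have := K.mul_mem (K.mul_mem (K.inv_mem (hPK ht)) hk') (hPK ht)
      have e : t⁻¹ * (t * k * t⁻¹) * t = k := by group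
      rwa [e] at this
  refine down K (piCore τ K) hM hP hCK hind.1 (fun u hu => ⟨hnorm u hu, fun χ hχ => ⟨χ, hχ, ?_⟩⟩)
    (not_dvd_card_piCore τ hp hpτ) (fun t ht g hg => conj_mem_map_piCore τ (hnorm t ht) hg) ξ h1
    (fun c hc => hk c (mem_piCore_of_le τ hCK c hc) ξ (mem_blockOf_self ξ))
  intro k k' hk'
  have h2 : k' = ⟨u, hPK hu⟩ * k * (⟨u, hPK hu⟩ : K)⁻¹ := Subtype.ext hk'
  rw [h2]
  exact isClassFunction_of_isIrrCharacter χ.2 _ _

end Hyp

end Cfsg.Agent.Lib.BlockPi.Main
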